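import Cfsg.Agent.Lib.KnownSimple.G24Lab.Data

set_option autoImplicit false
set_option maxRecDepth 100000

namespace Cfsg.Agent.Lib.KnownSimple.G24Lab

open Cfsg.Agent.Lib.KnownSimple.Lab Cfsg.Agent.Lib.KnownSimple.G24Lab Dat

theorem hES19c0_c0 : allI (fun i => lowOK D.T lN0 2 0 wES19 i) 0 1428 = true := by decide +kernel
theorem hES19c0_u0 : ∀ i, i < 1428 → (fun i => lowOK D.T lN0 2 0 wES19 i) i = true :=
  allI_join allI_start hES19c0_c0 rfl
theorem hES19c0_c1 : allI (fun i => lowOK D.T lN0 2 0 wES19 i) 1428 1428 = true := by decide +kernel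
theorem hES19c0_u1 : ∀ i, i < 2856 → (fun i => lowOK D.T lN0 2 0 wES19 i) i = true :=
  allI_join hES19c0_u0 hES19c0_c1 rfl
theorem hES19c0_c2 : allI (fun i => lowOK D.T lN0 2 0 wES19 i) 2856 1176 = true := by decide +kernel
theorem hES19c0_u2 : ∀ i, i < 4032 → (fun i => lowOK D.T lN0 2 0 wES19 i) i = true :=
  allI_join hES19c0_u1 hES19c0_c2 rfl
theorem hES19c0 : ∀ i, i < 4032 → (fun i => lowOK D.T lN0 2 0 wES19 i) i = true := hES19c0_u2
theorem hES20c0_c0 : allI (fun i => lowOK D.T lN0 2 0 wES20 i) 0 1578 = true := by decide +kernel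
theorem hES20c0_u0 : ∀ i, i < 1578 → (fun i => lowOK D.T lN0 2 0 wES20 i) i = true :=
  allI_join allI_start hES20c0_c0 rfl
theorem hES20c0_c1 : allI (fun i => lowOK D.T lN0 2 0 wES20 i) 1578 1578 = true := by decide +kernel
theorem hES20c0_u1 : ∀ i, i < 3156 → (fun i => lowOK D.T lN0 2 0 wES20 i) i = true :=
  allI_join hES20c0_u0 hES20c0_c1 rfl
theorem hES20c0_c2 : allI (fun i => lowOK D.T lN0 2 0 wES20 i) 3156 876 = true := by decide +kernel
theorem hES20c0_u2 : ∀ i, i < 4032 → (fun i => lowOK D.T lN0 2 0 wES20 i) i = true :=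
  allI_join hES20c0_u1 hES20c0_c2 rfl
theorem hES20c0 : ∀ i, i < 4032 → (fun i => lowOK D.T lN0 2 0 wES20 i) i = true := hES20c0_u2

end Cfsg.Agent.Lib.KnownSimple.G24Lab
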