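import Cfsg.Agent.Lib.KnownSimple.G24Lab.Letters

/-! The action of a letter on the points. -/

set_option autoImplicit false
set_option maxRecDepth 100000

namespace Cfsg.Agent.Lib.KnownSimple.G24Lab

open Cfsg.Agent.Lib.KnownSimple.Lab Cfsg.Agent.Lib.KnownSimple.LabField Cfsg.Agent.Lib.KnownSimple.LabChev Cfsg.Agent.Lib.KnownSimple.LabPack

theorem hVchk3 : allI (fun i => Nat.blt (V 3 i) 4095 &&
    Nat.beq (mvP 2 4 (cols 3) (ptc i) 0) (ptc (V 3 i))) 0 4095 = true := by decide +kernel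

end Cfsg.Agent.Lib.KnownSimple.G24Lab
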